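import Mathlib
import Cfsg.Agent.SPOR.F24.Pk

/-!
Groups of large Fischer type: the centralizer of the element of order 3 in `H`.
-/

set_option autoImplicit false
set_option maxHeartbeats 400000

namespace CL.F24

open Finset CL.K CL.CG CL.F2M CL.LX CL.MSS CL.FiRec CL.Misc CL.CoRec Cfsg MulAction
open scoped commutatorElement

attribute [local irreducible] gcode vcode

theorem simple_nonab {L : Type*} [Group L] [IsSimpleGroup L] (h : ¬ (Nat.card L).Prime) :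
    Subgroup.center L = ⊥ ∧ commutator L = ⊤ := by
  have h1 : Subgroup.center L ≠ ⊤ := fun e => h (by
    let := Group.commGroupOfCenterEqTop e
    exact CommGroup.is_simple_iff_prime_card.1 inferInstance)
  refine ⟨(Subgroup.Normal.eq_bot_or_eq_top inferInstance).resolve_right h1,
    (Subgroup.Normal.eq_bot_or_eq_top inferInstance).resolve_left fun e => h1 ?_⟩
  rw [commutator_def, Subgroup.commutator_eq_bot_iff_le_centralizer, Subgroup.coe_top,
    Subgroup.centralizer_univ] at e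
  exact top_le_iff.1 e

theorem Z0_ne_one : Z0 ≠ 1 := fun e => Z0_ne_inv (by rw [e, inv_one])

theorem exists_comm_Z0 : ∃ α ∈ Γ0, ∃ β ∈ Γ0, ⁅α, β⁆ = Z0 := by
  have h := C12.mem_of_wordsB mem_L0
    (W := [(0x200100002001020010008004080040800400, [2, 1, 1, 2, 1, 2, 1, 1, 1]),
      (0x80040010030008004001003000c008003002, [3, 3, 1, 3, 1, 1, 3, 1, 1])]) (by decide +kernel)
  obtain ⟨α, h1, e1⟩ := h _ (List.mem_cons_self ..)
  obtain ⟨β, h2, e2⟩ := h _ (List.mem_cons_of_mem _ (List.mem_cons_self ..))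
  refine ⟨α, h1, β, h2, ?_⟩
  rw [commutatorElement_def, mul_inv_eq_iff_eq_mul, mul_inv_eq_iff_eq_mul]
  refine C12.inj ?_
  rw [← C12.map_mul, ← C12.map_mul, ← C12.map_mul, e1, e2, code_Z0]
  decide +kernel

variable {G : Type*} [Group G] [Finite G] {z : G} {Q : Subgroup G} {κ : G → W}
  {ρ : Subgroup.centralizer ({z} : Set G) →* GL12}

theorem FT.mem_Γ0_of_comm (F : FT z Q κ ρ) {γ : GL12} (h : γ ∈ ρ.range) (e : γ * Z0 = Z0 * γ) :
    γ ∈ Γ0 := by
  by_contra hn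
  have h1 := comm_Z0 ((F.mul_mem_iff h (F.range_eq ▸ U0_mem)).2 (iff_of_false hn U0_not_mem))
  rw [mul_assoc, ← mul_assoc Z0, ← e, mul_assoc, mul_left_cancel_iff] at h1
  exact Z0_ne_inv (by rw [← U0_Z0, h1, mul_inv_cancel_right])

omit [Finite G] in
theorem FT.exists_gen (F : FT z Q κ ρ) {y : G} {γ : GL12} (h : Ov ρ y γ) (h1 : y ≠ 1)
    (h3 : y ^ 3 = 1) (hn : ∀ δ ∈ Γ0, δ * γ * δ⁻¹ ∈ Subgroup.zpowers γ) : γ = Z0 ∨ γ = Z0⁻¹ := by
  obtain ⟨π, hπ, hk⟩ := F.psu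
  have e3 : γ ^ 3 = 1 := (h.pow 3).unique (h3 ▸ ov_one)
  have hγ : γ ∈ Γ0 := by
    have := (F.mul_mem_iff h.range h.range).2 Iff.rfl
    have h4 := mul_mem this this
    rwa [show γ * γ * (γ * γ) = γ ^ 3 * γ by simp only [pow_three, mul_assoc], e3, one_mul] at h4
  have := simple_PSU9
  have hN : (Subgroup.zpowers (π ⟨γ, hγ⟩)).Normal := ⟨by
    rintro _ ⟨k, rfl⟩ g
    obtain ⟨δ, rfl⟩ := hπ g
    obtain ⟨j, hj⟩ := hn δ δ.2
    have : π δ * π ⟨γ, hγ⟩ * (π δ)⁻¹ = π ⟨γ, hγ⟩ ^ j := by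
      rw [← map_inv, ← map_mul, ← map_mul, ← map_zpow]
      exact congrArg π (Subtype.ext hj.symm)
    rw [← conj_zpow, this]
    exact zpow_mem (zpow_mem (Subgroup.mem_zpowers _) _) _⟩
  rcases hN.eq_bot_or_eq_top with e | e
  · rcases mem_zpowers_three Z0_cube ((hk _).1 (Subgroup.zpowers_eq_bot.1 e)) with e1 | e1 | e1
    · have h2 := F.sq y (F.mem_of_ov (by rwa [show γ = 1 from e1] at h))
      have h4 : y * y * (y * y) = 1 := by rw [h2, F.zp_sq]
      rw [show y * y * (y * y) = y ^ 3 * y by simp only [pow_three, mul_assoc], h3, one_mul] at h4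
      exact absurd h4 h1
    · exact .inl e1
    · exact .inr (e1.trans Z0_sq)
  · have h2 : orderOf (π ⟨γ, hγ⟩) ∣ 3 := orderOf_dvd_of_pow_eq_one (by
      rw [← map_pow, ← map_one π]; exact congrArg π (Subtype.ext e3))
    rw [← Nat.card_zpowers, e, Subgroup.card_top, card_PSU9] at h2
    exact absurd h2 (by norm_num)

theorem Su.z_mem_commutator {x : G} {a : Fin 4 → G} (S : Su z Q κ ρ x a)
    (hn : ∀ i, ¬ IsConj z (a i)) {C : Subgroup G} (hC : ∀ c, c * z = z * c → c * x = x * c → c ∈ C) :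
    z ∈ ⁅C, C⁆ := by
  have h1 : ∀ m, 0 < m → m < 16 → io z Q κ x a (vdec 11 (dm fT m ^^^ 128)) ∈ ⁅C, C⁆ :=
    fun m h0 hm => by
      obtain ⟨g, hg, e1, -⟩ := exists_gm' h0 hm
      obtain ⟨c, hc, e⟩ := S.exists_cent0 S.hx S.h3 (N0_le hg)
      have h2 := S.conj_dm hc e (m := 1) (by decide) hm (by omega) e1
      rw [S.sg_eq hn, show dm fT 1 = 128 * 2 ^ ((0 : Fin 4) : ℕ) by decide, S.io_single] at h2
      have h3 := Subgroup.commutator_mem_commutator (hC c hc.comm e) (hC _ (S.ha 0).comm (S.ha' 0))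
      rw [commutatorElement_def, h2, ← eq_inv_of_mul_eq_one_left (S.ea_AA _ (S.a_mem 0)),
        ← S.io_single 0, ← S.io_add, ← vdec_xor] at h3
      exact h3
  have := mul_mem (mul_mem (h1 2 (by decide) (by decide)) (h1 3 (by decide) (by decide)))
    (mul_mem (h1 4 (by decide) (by decide)) (h1 5 (by decide) (by decide)))
  rwa [← S.io_add, ← S.io_add, ← S.io_add, ← vdec_xor, ← vdec_xor, ← vdec_xor,
    show _ ^^^ _ = 64 by decide, S.io_ez] at this

theorem FT.cent3 (F : FT z Q κ ρ) {x : G} (hx : Ov ρ x Z0) (h3 : x ^ 3 = 1) {C : Type*} [Group C]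
    (f : C →* G) (hf : Function.Injective f)
    (hr : ∀ c, c ∈ f.range ↔ c * z = z * c ∧ c * x = x * c) :
    IsQuasisimple C ∧ IsCyclic (Subgroup.center C) ∧ Nat.card (Subgroup.center C) = 6 ∧
      Nonempty (C ⧸ Subgroup.center C ≃* PSU 4 F9 3) := by
  obtain ⟨π, hπ, hk⟩ := F.psu
  have := simple_PSU9
  obtain ⟨hc1, hc2⟩ := simple_nonab (L := PSU 4 F9 3) (by rw [card_PSU9]; norm_num)
  have hz := fun c => ((hr _).1 ⟨c, rfl⟩).1
  have hx' := fun c => ((hr _).1 ⟨c, rfl⟩).2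
  let φ : C →* Γ0 := (ρ.comp (f.codRestrict _ fun c =>
    Subgroup.mem_centralizer_singleton_iff.2 (hz c))).codRestrict _ fun c =>
      F.mem_Γ0_of_comm ⟨_, rfl⟩ ((Ov.mul ⟨_, rfl⟩ hx).unique (hx' c ▸ hx.mul ⟨_, rfl⟩))
  have hφ : ∀ c, Ov ρ (f c) (φ c) := fun c => ⟨_, rfl⟩
  have hφs : Function.Surjective φ := fun γ => by
    obtain ⟨c, hc, e⟩ := F.exists_cent0 hx h3 γ.2
    obtain ⟨c, rfl⟩ := (hr c).2 ⟨hc.comm, e⟩
    exact ⟨c, Subtype.ext ((hφ c).unique hc)⟩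
  obtain ⟨x', rfl⟩ := (hr x).2 ⟨hx.comm, rfl⟩
  obtain ⟨z', ez⟩ := (hr z).2 ⟨rfl, hx.comm.symm⟩
  have hxc : x' ∈ Subgroup.center C := Subgroup.mem_center_iff.2 fun c => hf (by
    rw [map_mul, map_mul, hx'])
  have hzc : z' ∈ Subgroup.center C := Subgroup.mem_center_iff.2 fun c => hf (by
    rw [map_mul, map_mul, ez, hz])
  have hker : ∀ c, π (φ c) = 1 → ∃ k : ℤ, c = x' ^ k ∨ c = x' ^ k * z' := fun c hc => by
    obtain ⟨k, e⟩ := (hk _).1 hc
    have h1 : Ov ρ (f x' ^ k) (φ c) := by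
      obtain ⟨h, e'⟩ := hx
      exact ⟨zpow_mem h k, ((map_zpow ρ ⟨_, h⟩ k).trans (by rw [e'])).trans e⟩
    obtain ⟨t, ht⟩ := F.cent_eq hx (hφ c) h1 (hx' c) (by rw [← map_zpow, hx'])
    refine ⟨k, (zp_cases z t).imp (fun e => hf ?_) fun e => hf ?_⟩
    · rw [ht, e, mul_one, map_zpow]
    · rw [ht, e, map_mul, ez, map_zpow]
  have hcen : Subgroup.center C = (π.comp φ).ker := le_antisymm
    (fun c hc => (Subgroup.mem_bot.1 (hc1 ▸ Subgroup.mem_center_iff.2 fun g => by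
      obtain ⟨d, rfl⟩ := (hπ.comp hφs) g
      change π.comp φ d * π.comp φ c = π.comp φ c * π.comp φ d
      rw [← map_mul, ← map_mul, Subgroup.mem_center_iff.1 hc]) : π.comp φ c = 1))
    fun c hc => by
      obtain ⟨k, rfl | rfl⟩ := hker c hc
      exacts [zpow_mem hxc k, mul_mem (zpow_mem hxc k) hzc]
  have e : C ⧸ Subgroup.center C ≃* PSU 4 F9 3 := (QuotientGroup.quotientMulEquivOfEq hcen).trans
    (QuotientGroup.quotientKerEquivOfSurjective _ (hπ.comp hφs))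
  have hx3 : x' ^ 3 = 1 := hf (by rw [map_pow, h3, map_one])
  have hz2 : z' ^ 2 = 1 := hf (by rw [map_pow, ez, sq, F.zz, map_one])
  have hcm : Commute x' z' := Subgroup.mem_center_iff.1 hzc x'
  have hz3 : (x' * z') ^ 3 = z' := by rw [hcm.mul_pow, hx3, one_mul, pow_succ, hz2, one_mul]
  have hx4 : (x' * z') ^ 4 = x' := by
    rw [hcm.mul_pow, pow_succ, hx3, one_mul, show 4 = 2 * 2 from rfl, pow_mul, hz2, one_pow, mul_one]
  have hcz : Subgroup.center C = Subgroup.zpowers (x' * z') := le_antisymm (fun c hc => by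
    have h1 : x' ∈ Subgroup.zpowers (x' * z') := ⟨(4 : ℕ), (zpow_natCast _ _).trans hx4⟩
    obtain ⟨k, rfl | rfl⟩ := hker c (by rwa [hcen] at hc)
    exacts [zpow_mem h1 k, mul_mem (zpow_mem h1 k) ⟨(3 : ℕ), (zpow_natCast _ _).trans hz3⟩])
    (Subgroup.zpowers_le.2 (mul_mem hxc hzc))
  refine ⟨⟨⟨?_⟩, e.isSimpleGroup⟩, hcz ▸ inferInstance, ?_, ⟨e⟩⟩
  · have h1 : z' ∈ commutator C := by
      obtain ⟨a, S⟩ := F.exists_su hx h3
      obtain ⟨a', S', hn⟩ := S.exists_su'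
      rw [← Subgroup.mem_map_iff_mem hf, map_commutator_eq, ez]
      exact S'.z_mem_commutator hn fun c h1 h2 => (hr c).2 ⟨h1, h2⟩
    have h2 : x' ∈ commutator C := by
      obtain ⟨α, hα, β, hβ, e⟩ := exists_comm_Z0
      obtain ⟨c, hc⟩ := hφs ⟨α, hα⟩
      obtain ⟨d, hd⟩ := hφs ⟨β, hβ⟩
      have h4 : Ov ρ (f ⁅c, d⁆) Z0 := by
        have := hφ ⁅c, d⁆
        rwa [map_commutatorElement φ, hc, hd, show ((⁅(⟨α, hα⟩ : Γ0), ⟨β, hβ⟩⁆ : Γ0) : GL12) = Z0
          from e] at this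
      obtain ⟨t, ht⟩ := F.cent_eq hx hx h4 rfl (hx' _)
      have h5 : ⁅c, d⁆ ∈ commutator C := Subgroup.commutator_mem_commutator trivial trivial
      rcases zp_cases z t with e | e <;> rw [e] at ht
      · rwa [hf (ht.trans (mul_one _))]
      · rw [← ez, ← map_mul] at ht
        rw [hf ht]; exact mul_mem h5 h1
    refine top_le_iff.1 fun c _ => ?_
    have h4 : π.comp φ c ∈ (commutator C).map (π.comp φ) := by
      rw [map_commutator_eq, (π.comp φ).range_eq_top.2 (hπ.comp hφs), ← commutator_def, hc2]; trivial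
    obtain ⟨d, hd, e⟩ := h4
    obtain ⟨k, h5⟩ := hker (d⁻¹ * c) (by
      change π.comp φ _ = 1
      rw [map_mul, map_inv, e, inv_mul_cancel])
    rw [← mul_inv_cancel_left d c]
    refine mul_mem hd ?_
    rcases h5 with e | e <;> rw [e]
    exacts [zpow_mem h2 k, mul_mem (zpow_mem h2 k) h1]
  · have : Fact (Nat.Prime 3) := ⟨by norm_num⟩
    have h1 : orderOf x' = 3 := orderOf_eq_prime hx3 fun e =>
      Z0_ne_one (hx.unique (by rw [e, map_one]; exact ov_one))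
    have h2 : orderOf z' = 2 := orderOf_eq_prime hz2 fun e => F.lx.z_ne (by rw [← ez, e, map_one])
    rw [hcz, Nat.card_zpowers, hcm.orderOf_mul_eq_mul_orderOf_of_coprime (by rw [h1, h2]; decide),
      h1, h2]

end CL.F24
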