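import Mathlib
import Cfsg.Agent.SPOR.F24.Cent3
import Cfsg.Agent.PLOC.PFrattini
import Cfsg.Agent.CLAS.SLBasic

/-!
Groups of large Fischer type: the normalizer of the elementary abelian group of order 8.
-/

set_option autoImplicit false
set_option maxHeartbeats 400000

namespace CL.F24

open Finset CL.K CL.CG CL.F2M CL.LX CL.MSS CL.FiRec CL.Misc CL.CoRec CL.Golay Cfsg MulAction
open scoped commutatorElement Pointwise

attribute [local irreducible] gcode vcode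

theorem isSpecial_of {P : Type*} [Group P] [Finite P] (hP : IsPGroup 2 P)
    (h1 : ∀ g : P, g * g ∈ Subgroup.center P) (h2 : Subgroup.center P ≤ commutator P) :
    IsSpecial 2 P := by
  have h3 : commutator P ≤ Subgroup.center P := Subgroup.commutator_le.2 fun a _ b _ => by
    rw [show ⁅a, b⁆ = a * a * (a⁻¹ * b * (a⁻¹ * b)) * (b⁻¹ * b⁻¹) by
      rw [commutatorElement_def]; group]
    exact mul_mem (mul_mem (h1 _) (h1 _)) (h1 _)
  exact ⟨hP, le_antisymm (PG.frattini_le_of_commutator_le_of_pow_mem (p := 2) h3 fun g => sq g ▸ h1 g)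
    (h2.trans (PG.commutator_le_frattini hP)), le_antisymm h3 h2⟩

theorem map_eq_bot_of_simple {L S : Type*} [Group L] [Group S] [IsSimpleGroup S]
    (hS : ¬ IsPGroup 2 S) (μ : L →* S) (hμ : Function.Surjective μ) {N : Subgroup L} (hN : N.Normal)
    (h : IsPGroup 2 N) : N ≤ μ.ker :=
  (Subgroup.map_eq_bot_iff _).1 ((hN.map μ hμ).eq_bot_or_eq_top.resolve_right fun e =>
    hS ((e ▸ h.map μ).of_equiv Subgroup.topEquiv))

theorem prod_quot {L S A : Type*} [Group L] [Group S] [Group A] [IsSimpleGroup S] [IsSimpleGroup A]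
    (hS : ¬ IsPGroup 2 S) (hA : ¬ IsPGroup 2 A) (hc : Subgroup.center A = ⊥) (μ : L →* S)
    (hμ : Function.Surjective μ) (φ : μ.ker →* A) (hφ : Function.Surjective φ)
    (h2 : IsPGroup 2 φ.ker) {q : L} (hq : μ q ≠ 1)
    (hq' : ∀ c : μ.ker, φ (MulAut.conjNormal q c) = φ c) :
    pCore 2 L = φ.ker.map μ.ker.subtype ∧
      ∃ θ : L →* S × A, Function.Surjective θ ∧ θ.ker = pCore 2 L := by
  have hR : ∀ (g : L) (c : μ.ker), φ c = 1 → φ (MulAut.conjNormal g c) = 1 := fun g c hc =>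
    map_eq_bot_of_simple hA φ hφ (Subgroup.Normal.map inferInstance
      (MulAut.conjNormal g (H := μ.ker)).toMonoidHom (MulAut.conjNormal g).surjective) (h2.map _)
      ⟨c, hc, rfl⟩
  have hN : (φ.ker.map μ.ker.subtype).Normal :=
    ⟨by rintro _ ⟨c, hc, rfl⟩ g; exact ⟨_, hR g c hc, rfl⟩⟩
  have h1 : pCore 2 L = φ.ker.map μ.ker.subtype := le_antisymm (sSup_le fun N hN' c hc =>
    ⟨⟨c, map_eq_bot_of_simple hS μ hμ hN'.1 hN'.2 hc⟩, map_eq_bot_of_simple hA φ hφ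
      (hN'.1.subgroupOf _) hN'.2.comap_subtype hc, rfl⟩) (le_sSup ⟨hN, h2.map _⟩)
  let K : Subgroup L :=
    { carrier := {g | ∀ c : μ.ker, φ (MulAut.conjNormal g c) = φ c}
      one_mem' := fun c => by simp
      mul_mem' := fun {g h} hg hh c => by rw [map_mul, MulAut.mul_apply, hg, hh]
      inv_mem' := fun {g} hg c => by
        rw [← hg, ← MulAut.mul_apply, ← map_mul, mul_inv_cancel, map_one, MulAut.one_apply] }
  have hK : K.Normal := ⟨fun g hg h c => by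
    have := hR h ((MulAut.conjNormal h⁻¹ c)⁻¹ * MulAut.conjNormal g (MulAut.conjNormal h⁻¹ c))
      (by rw [map_mul, hg, map_inv, inv_mul_cancel])
    rw [map_mul, map_mul, map_inv, map_inv, inv_mul_eq_one, ← MulAut.mul_apply, ← map_mul,
      mul_inv_cancel, map_one, MulAut.one_apply] at this
    rw [map_mul, map_mul, MulAut.mul_apply, MulAut.mul_apply, ← this]⟩
  have hKs : ∀ s, ∃ k ∈ K, μ k = s := fun s =>
    (((hK.map μ hμ).eq_bot_or_eq_top.resolve_left fun e =>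
      hq ((Subgroup.map_eq_bot_iff _).1 e hq')).symm ▸ Subgroup.mem_top s : s ∈ K.map μ)
  have hu : ∀ {a b : A}, (∀ c, a * φ c * a⁻¹ = b * φ c * b⁻¹) → a = b := fun {a b} h => by
    refine inv_mul_eq_one.1 (Subgroup.mem_bot.1 (hc ▸ Subgroup.mem_center_iff.2 fun y => ?_))
    obtain ⟨c, rfl⟩ := hφ y
    calc _ = a⁻¹ * (a * φ c * a⁻¹) * b := by group
      _ = _ := by rw [h]; group
  have hcc : ∀ d c : μ.ker, φ (MulAut.conjNormal (d : L) c) = φ d * φ c * (φ d)⁻¹ := fun d c => by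
    rw [← map_inv, ← map_mul, ← map_mul]; rfl
  have hex : ∀ g : L, ∃ a, ∀ c, φ (MulAut.conjNormal g c) = a * φ c * a⁻¹ := fun g => by
    obtain ⟨k, hk, e⟩ := hKs (μ g)
    refine ⟨φ ⟨k⁻¹ * g, by simp [e]⟩, fun c => ?_⟩
    rw [← hcc, ← hk (MulAut.conjNormal (k⁻¹ * g) c), ← MulAut.mul_apply, ← map_mul,
      mul_inv_cancel_left]
  choose t ht using hex
  let t' : L →* A := MonoidHom.mk' t fun g h => hu fun c => by
    rw [← ht, map_mul, MulAut.mul_apply, ht, ht]; group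
  have h3 : ∀ c : μ.ker, t c = φ c := fun d => hu fun c => by rw [← ht, hcc]
  refine ⟨h1, μ.prod t', fun ⟨s, a⟩ => ?_, h1 ▸ Subgroup.ext fun g => ⟨fun h => ?_, ?_⟩⟩
  · obtain ⟨k, hk, rfl⟩ := hKs s
    obtain ⟨c, rfl⟩ := hφ a
    refine ⟨k * c, Prod.ext (by simp [MonoidHom.mem_ker.1 c.2]) (hu fun d => ?_)⟩
    change t (k * c) * _ * (t (k * c))⁻¹ = φ c * _ * (φ c)⁻¹
    rw [← ht, map_mul, MulAut.mul_apply, hk, hcc]
  · exact ⟨⟨g, congrArg Prod.fst h⟩, (h3 _).symm.trans (congrArg Prod.snd h), rfl⟩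
  · rintro ⟨c, hc, rfl⟩
    exact Prod.ext c.2 ((h3 c).trans hc)

/-- the general linear group of degree 3 -/
abbrev GL3 : Type := GL (Fin 3) (ZMod 2)

theorem ok3 : OK 3 0x49 7 := ⟨by norm_num, by norm_num, by decide +kernel⟩

theorem simple_sl3 : IsSimpleGroup (Matrix.SpecialLinearGroup (Fin 3) (ZMod 2)) := by
  have := CL.SL.psl_isSimpleGroup_of_three_le (ι := Fin 3) (F := ZMod 2) (by simp)
  have h : Subgroup.center (Matrix.SpecialLinearGroup (Fin 3) (ZMod 2)) = ⊥ :=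
    Subgroup.card_eq_one.1 (by rw [CL.SL.card_center_SL]; simp)
  exact ((QuotientGroup.quotientMulEquivOfEq h).trans QuotientGroup.quotientBot).symm.isSimpleGroup

theorem nonempty_sl3 : Nonempty (Matrix.SpecialLinearGroup (Fin 3) (ZMod 2) ≃* GL3) :=
  ⟨MulEquiv.ofBijective Matrix.SpecialLinearGroup.toGL ⟨Matrix.SpecialLinearGroup.toGL_injective,
    fun g => ⟨⟨g, congrArg Units.val (Subsingleton.elim (Matrix.GeneralLinearGroup.det g) 1)⟩,
      Units.ext rfl⟩⟩⟩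

theorem card_GL3 : Nat.card GL3 = 168 := by
  rw [Matrix.card_GL_field, ZMod.card]; decide +kernel

theorem not_two_of_card {S : Type*} [Group S] [Finite S] (h : 3 ∣ Nat.card S) : ¬ IsPGroup 2 S :=
  fun e => by
    obtain ⟨n, hn⟩ := e.exists_card_eq
    exact absurd ((by norm_num : Nat.Prime 3).dvd_of_dvd_pow (hn ▸ h)) (by norm_num)

theorem GL3_gen {K : Subgroup GL3} (h : ∀ c ∈ [225, 212], Mem gcode K c) :
    K = ⊤ ∧ ∀ u : Fin 3 → ZMod 2, u ≠ 0 → ∃ g : GL3, g • vdec 3 1 = u := by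
  refine ⟨Subgroup.eq_top_of_le_card _ (card_GL3 ▸ ok3.isAct.chain_le ok3.isCode
    (B := [(1, 7), (2, 6), (4, 4)]) (ok3.isCode.mem_of_wordsB h (W := [(225, [0]), (212, [1]),
      (369, [1, 1, 0, 1]), (401, [0, 1, 1, 0, 1, 0]), (337, [1, 0, 0, 1, 0, 1])]) (by decide +kernel))
    (by decide +kernel)), fun u hu => ?_⟩
  have h1 := (ok3.isAct.orbit_eq ok3.isCode h (b := 1) (S := 254) (m := 7) (by decide)
    (by decide +kernel)).2 u
  have h2 : ∀ c < 2 ^ 3, c ≠ 0 → Nat.testBit 254 c = true := by decide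
  obtain ⟨g, e⟩ := h1.2 (h2 _ (vcode_lt u) fun e => hu (vcode_injective (e.trans vcode_zero.symm)))
  exact ⟨g, e⟩

/-- coordinates of the group of order 8 -/
noncomputable def jc (c : ℕ) : ℕ := lget [0, 64, 5, 69, 10, 74, 15, 79] c
/-- tetrads -/
noncomputable def jt (c : ℕ) : ℕ :=
  lget [0, 519, 1081347, 8389635, 8421381, 1049605, 34305, 9437697] c
/-- the singular point -/
def L4 : List ℕ := [0, 85, 170, 255]
/-- basis of the orthogonal complement -/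
def B10 : List ℕ := [5, 10, 17, 34, 65, 130, 256, 512, 1024, 2048]

theorem jc_check : ∀ a < 8, jc a < 128 ∧ w0c (jc a) ∈ L4 ∧ jc a ^^^ 64 = jc (a ^^^ 1) ∧
    sel (lget LP) 24 (jt a) = jc a ∧ jt a < 2 ^ 24 ∧ pc24 (jt a) % 2 = 0 ∧
    ∀ b < 8, jc (a ^^^ b) = jc a ^^^ jc b ∧ (jc a = jc b → a = b) := by decide +kernel

theorem D0_check {δ : GL12} (h : δ ∈ D0) : δ * δ = 1 ∧ ((∀ b ∈ B10, δ • vdec 12 b = vdec 12 b) → δ = 1) ∧
    ∀ w : W, (∀ l : W, vcode l ∈ L4 → bf w l = 0) → vcode (w + δ • w) ∈ L4 := by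
  have : (pclK LD fun P => lall (fun d => Nat.beq (mm d d) c1 &&
    (Nat.beq d c1 || lany (fun b => blt b 4096 && !Nat.beq (ac d b) b) B10) && allN (fun w =>
      !Nat.beq (bC w 85) 0 || !Nat.beq (bC w 170) 0 || memB (Nat.xor w (ac d w)) L4) 4096) P) = true := by
    decide +kernel
  have h1 := lall_iff.1 ((pclK_eq _ _).symm.trans this) _ ((D0_spec.1 δ).1 h)
  simp only [Bool.and_eq_true, Bool.or_eq_true, Nat.beq_eq, lany_iff] at h1
  obtain ⟨⟨h2, h3⟩, h4⟩ := h1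
  refine ⟨C12.inj (by rw [← C12.map_mul, h2, C12.map_one]), fun h5 => ?_, fun w hw => ?_⟩
  · refine C12.inj ((h3.resolve_right fun ⟨b, hb, h6, h7⟩ => ?_).trans C12.map_one.symm)
    rw [← vcode_vdec (n := 12) (lt_of_blt h6), ac_code, h5 b hb, Nat.beq_refl] at h7
    exact absurd h7 (by decide)
  · have h5 := allN_spec h4 _ (vcode_lt w)
    have h6 : ∀ c < 2 ^ 12, c ∈ L4 → bC (vcode w) c = 0 := fun c hc h => by
      rw [← vcode_vdec hc] at h ⊢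
      rw [bC_code, hw _ h]; rfl
    rw [h6 85 (by decide) (by decide), h6 170 (by decide) (by decide), ac_code] at h5
    rw [vcode_add]
    exact memB_iff.1 h5

theorem B10_perp {b : ℕ} (hb : b ∈ B10) {l : W} (hl : vcode l ∈ L4) : bf (vdec 12 b) l = 0 := by
  have : ∀ b ∈ B10, b < 2 ^ 12 ∧ ∀ l ∈ L4, bC b l = 0 := by decide +kernel
  have h := (this b hb).2 _ hl
  rw [← vcode_vdec (this b hb).1, bC_code] at h
  exact (ZMod.val_eq_zero _).1 h

theorem mem_L4_of_perp {w : W} (h : ∀ b ∈ B10, bf w (vdec 12 b) = 0) : vcode w ∈ L4 := by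
  have : allN (fun w => lany (fun b => blt b 4096 && !Nat.beq (bC w b) 0) B10 || memB w L4) 4096 =
    true := by decide +kernel
  have h1 := allN_spec this _ (vcode_lt w)
  simp only [Bool.and_eq_true, Bool.or_eq_true, lany_iff] at h1
  refine memB_iff.1 (h1.resolve_left fun ⟨b, hb, h2, h3⟩ => ?_)
  rw [← vcode_vdec (n := 12) (lt_of_blt h2), bC_code, h b hb] at h3
  exact absurd h3 (by decide)

theorem code_Z0_s0 : vcode (Z0 • s0) = 170 ∧ vcode (Z0⁻¹ • s0) = 255 := by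
  rw [← ac_code, ← ac_code, code_Z0, code_Z0_inv, code_s0]; decide +kernel

theorem fix_L4 {γ : GL12} (h : γ ∈ Γ0) (e : γ • s0 = s0) {w : W} (hw : vcode w ∈ L4) : γ • w = w := by
  have h1 : γ • Z0 • s0 = Z0 • s0 := by rw [← mul_smul, comm_Z0 h, mul_smul, e]
  simp only [L4, List.mem_cons, List.not_mem_nil, or_false] at hw
  rcases hw with e' | e' | e' | e'
  · rw [vcode_injective (e'.trans vcode_zero.symm), smul_zero]
  · rwa [vcode_injective (e'.trans code_s0.symm)]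
  · rwa [vcode_injective (e'.trans code_Z0_s0.1.symm)]
  · rw [vcode_injective (e'.trans code_Z0_s0.2.symm), ← add_Z0, smul_add, e, h1]

theorem E0_inf : E0 ⊓ Γ0 = D0 := by
  refine le_antisymm (fun g hg => ?_) (le_inf (C12.gen_le fun c hc =>
    mem_gen mem_LE c (List.mem_cons_of_mem _ hc)) (D0_le.trans Y0_le))
  have h := (E0_spec.1 g).1 hg.1
  rw [pcl_cons, List.mem_append, List.mem_map] at h
  refine (D0_spec.1 g).2 (h.resolve_right fun ⟨c, hc, e⟩ => ?_)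
  obtain ⟨d, hd, rfl⟩ := mem_of_pcl mem_LD c hc
  rw [← code_U0, C12.map_mul] at e
  exact U0_not_mem ((mul_mem_cancel_right (Y0_le hd)).1 (C12.inj e ▸ hg.2))

variable {G : Type*} [Group G] [Finite G] {z : G} {Q : Subgroup G} {κ : G → W}
  {ρ : Subgroup.centralizer ({z} : Set G) →* GL12}

theorem FT.mem_Γ0_of_fix (F : FT z Q κ ρ) {γ : GL12} (h : γ ∈ ρ.range)
    (e : ∀ w : W, vcode w ∈ L4 → γ • w = w) : γ ∈ Γ0 ∧ γ • s0 = s0 := by
  have h1 := e s0 (by rw [code_s0]; decide)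
  refine ⟨(F.norm γ h).elim (fun e' => F.mem_Γ0_of_comm h (mul_inv_eq_iff_eq_mul.1 e'))
    fun e' => ?_, h1⟩
  have h2 := e _ (by rw [code_Z0_s0.1]; decide)
  rw [← mul_smul, mul_inv_eq_iff_eq_mul.1 e', mul_smul, h1] at h2
  have h3 := code_Z0_s0.2
  rw [h2, code_Z0_s0.1] at h3
  omega

theorem FT.exists_V8 (F : FT z Q κ ρ) : ∃ (V : Subgroup G) (ι : (Fin 3 → ZMod 2) → G)
    (μ : Subgroup.normalizer (V : Set G) →* GL3), (∀ q, q ∈ V ↔ q ∈ Q ∧ vcode (κ q) ∈ L4) ∧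
    (∀ q, q ∈ V ↔ ∃ u, ι u = q) ∧ Function.Injective ι ∧ ι 0 = 1 ∧ ι (vdec 3 1) = z ∧
    (∀ c ∈ [225, 212], Mem gcode μ.range c) ∧
    ∀ (g : Subgroup.normalizer (V : Set G)) u, g * ι u * (g : G)⁻¹ = ι (μ g • u) := by
  obtain ⟨x, hx, h3⟩ := F.exists_x'
  obtain ⟨a0, S0⟩ := F.exists_su hx h3
  obtain ⟨a, S, hn⟩ := S0.exists_su'
  let ι : (Fin 3 → ZMod 2) → G := fun u => io z Q κ x a (vdec 11 (jc (vcode u)))
  have hc := fun u : Fin 3 → ZMod 2 => jc_check _ (vcode_lt u)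
  have h1 : ∀ u v, ι (u + v) = ι u * ι v := fun u v => by
    unfold ι
    rw [vcode_add, ((hc u).2.2.2.2.2.2 _ (vcode_lt v)).1, vdec_xor, S.io_add]
  have h2 : Function.Injective ι := fun u v e => vcode_injective
    (((hc u).2.2.2.2.2.2 _ (vcode_lt v)).2 (eq_of_vdec (n := 11) (by have := (hc u).1; omega)
      (by have := (hc v).1; omega) (S.io_inj e)))
  let V := (MonoidHom.mk' (fun u : Multiplicative (Fin 3 → ZMod 2) => ι u.toAdd) h1).range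
  have hV : ∀ q, q ∈ V ↔ ∃ u, ι u = q := fun q => Iff.rfl
  obtain ⟨μ, hμ⟩ := exists_mu ι h1 h2 hV
  have h4 : ∀ c < 8, ι (vdec 3 c) = io z Q κ x a (vdec 11 (jc c)) := fun c hc => by
    unfold ι; rw [vcode_vdec (n := 3) hc]
  refine ⟨V, ι, μ, fun q => ⟨?_, fun ⟨hq, h⟩ => ?_⟩, hV, h2, by simpa using h1 0 0,
    (h4 1 (by decide)).trans S.io_ez, ?_, hμ⟩
  · rintro ⟨u, rfl⟩
    obtain ⟨h5, h6⟩ := S.io_low (hc u).1
    refine ⟨h5, ?_⟩
    change vcode (κ (io z Q κ x a (vdec 11 (jc (vcode u))))) ∈ _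
    rw [h6, ← wv_vdec (by have := (hc u).1; omega), (code_wv _).1,
      vcode_vdec (by have := (hc u).1; omega)]
    exact (hc u).2.1
  · obtain ⟨c, hc', e⟩ := (by decide +kernel : ∀ l ∈ L4, ∃ c < 8, w0c (jc c) = l) _ h
    obtain ⟨h5, -, h6, -⟩ := jc_check c hc'
    obtain ⟨h7, h8⟩ := S.io_low h5
    rw [e, vdec_vcode] at h8
    rcases (F.κ_eq_iff hq h7).1 h8.symm with e' | e'
    · exact ⟨vdec 3 c, (h4 c hc').trans e'.symm⟩
    · exact ⟨vdec 3 (c ^^^ 1), by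
        rw [e', ← S.io_xor, h6]; exact h4 _ (Nat.xor_lt_two_pow (n := 3) hc' (by decide))⟩
  · obtain ⟨ψ, hψ, -, h5⟩ := (S.pk hn).exists_ψ
    have : ∀ c ∈ [225, 212], c < 2 ^ (3 * 3) ∧ ∃ P ∈ [556205797570936532042403499908697798,
        4384255352080923869669926783780138], okM P = true ∧ ∀ u < 8, act 3 7 c u < 8 ∧
        sel (lget LP) 24 (img24 P (jt u)) = jc (act 3 7 c u) := by decide +kernel
    intro c hc'
    obtain ⟨h6, P, -, h7, h8⟩ := this c hc'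
    obtain ⟨σ, hσ, hR⟩ := I.of_okM h7
    obtain ⟨g, hg⟩ := hψ ⟨σ, hσ⟩
    have h9 : ∀ u, g * ι u * (g : G)⁻¹ = ι (vdec 3 (act 3 7 c (vcode u))) := fun u => by
      obtain ⟨-, -, -, e1, e2, e3, -⟩ := hc u
      have := h5 g (E.setOf (jt (vcode u))) (by rw [card_setOf]; exact Nat.even_iff.2 e3)
      rw [hg, ← R.setOf_img hR] at this
      unfold pp at this
      rw [sum_setOf, sum_setOf, e1, (h8 _ (vcode_lt u)).2] at this
      rw [h4 _ (h8 _ (vcode_lt u)).1]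
      exact this
    refine ⟨μ ⟨g, mem_normalizer_of_forall ?_⟩, ⟨_, rfl⟩, ?_⟩
    · rintro _ ⟨u, rfl⟩; exact ⟨_, (h9 u).symm⟩
    · refine Eq.trans ?_ (mcode_mdec h6)
      unfold gcode
      refine congrArg mcode (Matrix.toLin'.injective (LinearMap.ext fun u => ?_))
      rw [Matrix.toLin'_apply, Matrix.toLin'_apply, ← gl_smul, ← vdec_vcode u, ← ok3.vdec_act,
        vdec_vcode]
      exact h2 ((hμ _ u).symm.trans (h9 u))

theorem FT.V8 (F : FT z Q κ ρ) : ∃ V : Subgroup G, IsElementaryAbelian 2 V ∧ Nat.card V = 8 ∧ z ∈ V ∧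
    ∃ R : Subgroup G, R = (pCore 2 ↥(Subgroup.normalizer (V : Set G))).map
      (Subgroup.normalizer (V : Set G)).subtype ∧ IsSpecial 2 ↥R ∧ Nat.card R = 2 ^ 15 ∧
      (Subgroup.center ↥R).map R.subtype = V ∧
      ∃ _ : (R.subgroupOf (Subgroup.normalizer (V : Set G))).Normal,
        Nonempty (↥(Subgroup.normalizer (V : Set G)) ⧸ R.subgroupOf (Subgroup.normalizer (V : Set G)) ≃*
          Matrix.SpecialLinearGroup (Fin 3) (ZMod 2) × ↥(alternatingGroup (Fin 6))) := by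
  obtain ⟨V, ι, μ0, hV, hι, hi, h0, hz, hg, hμ⟩ := F.exists_V8
  obtain ⟨hμs, htr⟩ := GL3_gen hg
  obtain ⟨x, hx, h3⟩ := F.exists_x'
  obtain ⟨e⟩ := nonempty_sl3
  obtain ⟨hX, φ0, hφ0, hk0⟩ := stab1_s0 F.card1
  have hVQ : V ≤ Q := fun q hq => ((hV q).1 hq).1
  have hzV : z ∈ V := (hι z).2 ⟨_, hz⟩
  have hc8 : Nat.card V = 8 := by
    rw [← Nat.card_congr (Equiv.ofBijective (fun u => (⟨ι u, (hι _).2 ⟨u, rfl⟩⟩ : V))
      ⟨fun u v e => hi (congrArg Subtype.val e), fun ⟨q, hq⟩ =>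
        ((hι q).1 hq).imp fun _ => Subtype.ext⟩)]
    simp
  set C := Subgroup.centralizer (V : Set G)
  have hCz : C ≤ Subgroup.centralizer ({z} : Set G) :=
    Subgroup.centralizer_le (Set.singleton_subset_iff.2 hzV)
  have hfix : ∀ {c γ}, c ∈ C → Ov ρ c γ → γ ∈ Γ0 ∧ γ • s0 = s0 := fun hc h =>
    F.mem_Γ0_of_fix h.range fun w hw => by
      obtain ⟨y, hy, rfl⟩ := F.κ_surj w
      rw [← F.κ_ov h hy, ← hc y ((hV y).2 ⟨hy, hw⟩), mul_inv_cancel_right]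
  have hlift : ∀ {γ}, γ ∈ Γ0 → γ • s0 = s0 → ∃ c ∈ C, Ov ρ c γ ∧ c * x = x * c := fun h1 h2 => by
    obtain ⟨c, h, e⟩ := F.exists_cent0 hx h3 h1
    refine ⟨c, fun q hq => ?_, h, e⟩
    obtain ⟨b, e1⟩ := F.exists_eq_lf hx (hVQ hq)
    have := F.conj_lf hx h e (κ q)
    rw [fix_L4 h1 h2 ((hV q).1 hq).2, mul_inv_eq_iff_eq_mul] at this
    rw [e1, mul_assoc, ← F.zp_comm h, ← mul_assoc, ← this, mul_assoc]
  have hQC : ∀ q ∈ Q, q ∈ C ↔ ∀ l : W, vcode l ∈ L4 → bf (κ q) l = 0 := fun q hq =>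
    ⟨fun h l hl => by
      obtain ⟨y, hy, rfl⟩ := F.κ_surj l
      exact (F.comm_iff hq hy).1 (h y ((hV y).2 ⟨hy, hl⟩)).symm,
    fun h y hy => ((F.comm_iff hq (hVQ hy)).2 (h _ ((hV y).1 hy).2)).symm⟩
  have hB : ∀ b ∈ B10, ∃ q ∈ Q, q ∈ C ∧ κ q = vdec 12 b := fun b hb => by
    obtain ⟨q, hq, e⟩ := F.κ_surj (vdec 12 b)
    exact ⟨q, hq, (hQC q hq).2 fun l hl => e ▸ B10_perp hb hl, e⟩
  have hL : ∀ l ∈ L4, ∀ l' ∈ L4, bC l l' = 0 ∧ qC l = 0 := by decide +kernel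
  have hVC : V ≤ C := fun q hq => (hQC q (hVQ hq)).2 fun l hl =>
    (ZMod.val_eq_zero _).1 (bC_code _ _ ▸ (hL _ ((hV q).1 hq).2 _ hl).1)
  have hEA : EA V := fun q hq => (F.sq_iff (hVQ hq)).2
    ((ZMod.val_eq_zero _).1 (qC_code _ ▸ (hL _ ((hV q).1 hq).2 _ ((hV q).1 hq).2).2))
  have hQL : Q ≤ Subgroup.normalizer (V : Set G) := fun q hq => mem_normalizer_of_forall fun v hv =>
    (hV _).2 ⟨F.conj_mem (F.ov_Q hq) (hVQ hv), by
      rw [F.κ_ov (F.ov_Q hq) (hVQ hv), one_smul]; exact ((hV v).1 hv).2⟩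
  have hCL : C ≤ Subgroup.normalizer (V : Set G) := Subgroup.centralizer_le_normalizer _
  let μ := e.symm.toMonoidHom.comp μ0
  have hker : ∀ g, g ∈ μ.ker ↔ (g : G) ∈ C := fun g => by
    change e.symm (μ0 g) = 1 ↔ _
    rw [map_eq_one_iff _ e.symm.injective]
    refine ⟨fun h v hv => ?_, fun h => gl_ext fun u => hi ?_⟩
    · obtain ⟨u, rfl⟩ := (hι v).1 hv
      have := hμ g u
      rw [h, one_smul, mul_inv_eq_iff_eq_mul] at this
      exact this.symm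
    · rw [← hμ, one_smul, ← h _ ((hι _).2 ⟨u, rfl⟩), mul_inv_cancel_right]
  let φ1 : μ.ker →* GL12 := ρ.comp (((Subgroup.subtype _).comp μ.ker.subtype).codRestrict _
    fun c => hCz ((hker c).1 c.2))
  have hφ1 : ∀ c : μ.ker, Ov ρ c (φ1 c) := fun c => ⟨_, rfl⟩
  have hφX : ∀ c, φ1 c ∈ X0 := fun c => hX ▸ ⟨Γ0_le (hfix ((hker c).1 c.2) (hφ1 c)).1,
    (hfix ((hker c).1 c.2) (hφ1 c)).2⟩
  let φ := φ0.comp (φ1.codRestrict _ hφX)
  have hφ : Function.Surjective φ := fun τ => by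
    obtain ⟨δ, rfl⟩ := hφ0 τ
    have hU : U0 ∈ E0 := C12.mem_iff.1 (code_U0 ▸ mem_gen mem_LE _ (List.mem_cons_self ..))
    obtain ⟨δ', h1, h2⟩ : ∃ δ' : X0, (δ' : GL12) ∈ Γ0 ∧ φ0 δ' = φ0 δ := by
      by_cases h : (δ : GL12) ∈ Γ0
      · exact ⟨δ, h, rfl⟩
      · exact ⟨δ * ⟨U0, E0_le hU⟩, (F.mul_mem_iff (F.range_eq ▸ X0_le δ.2)
          (F.range_eq ▸ U0_mem)).2 (iff_of_false h U0_not_mem),
          by rw [map_mul, (hk0 ⟨U0, E0_le hU⟩).2 hU, mul_one]⟩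
    obtain ⟨c, hc, h4, -⟩ := hlift h1 (X0_fix δ'.2)
    exact ⟨⟨⟨c, hCL hc⟩, (hker _).2 hc⟩, h2 ▸ congrArg φ0 (Subtype.ext ((hφ1 _).unique h4))⟩
  have hφk : ∀ c, c ∈ φ.ker ↔ φ1 c ∈ D0 := fun c => (hk0 _).trans (E0_inf ▸
    ⟨fun h => ⟨h, (hfix ((hker c).1 c.2) (hφ1 c)).1⟩, fun h => h.1⟩)
  have hD2 : IsPGroup 2 (pre ρ D0) := F.isPGroup_pre (IsPGroup.of_card D0_spec.2)
  obtain ⟨q0, hq0, e0⟩ := F.κ_surj (vdec 12 2)
  have := simple_sl3
  have : IsSimpleGroup (alternatingGroup (Fin 6)) := alternatingGroup.isSimpleGroup (by simp)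
  have hc6 : Nat.card (alternatingGroup (Fin 6)) = 360 := by
    rw [nat_card_alternatingGroup, Nat.card_eq_fintype_card, Fintype.card_fin]; rfl
  obtain ⟨hO, θ, hθ, hθk⟩ := prod_quot
    (not_two_of_card (by rw [Nat.card_congr e.toEquiv, card_GL3]; norm_num))
    (not_two_of_card (by rw [hc6]; norm_num)) (simple_nonab (by rw [hc6]; norm_num)).1 μ
    (e.symm.surjective.comp (MonoidHom.range_eq_top.1 hμs)) φ hφ
    ((hD2.comap_of_injective ((Subgroup.subtype _).comp μ.ker.subtype) fun a b e =>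
      Subtype.ext (Subtype.ext e)).to_le fun c hc => mem_pre.2 ⟨_, (hφk c).1 hc, hφ1 c⟩)
    (q := ⟨q0, hQL hq0⟩) (fun h => by
      have h1 := (hQC q0 hq0).1 ((hker _).1 h) s0 (by rw [code_s0]; decide)
      rw [e0] at h1
      exact absurd h1 (by decide +kernel))
    fun c => congrArg φ0 (Subtype.ext ((hφ1 _).unique (by
      simpa using (F.ov_Q hq0).conj (hφ1 c))))
  have hR : ∀ c, c ∈ (pCore 2 ↥(Subgroup.normalizer (V : Set G))).map
      (Subgroup.normalizer (V : Set G)).subtype ↔ c ∈ C ∧ ∃ γ ∈ D0, Ov ρ c γ := fun c => by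
    rw [hO]
    exact ⟨by rintro ⟨_, ⟨d, hd, rfl⟩, rfl⟩; exact ⟨(hker d).1 d.2, _, (hφk d).1 hd, hφ1 d⟩,
      fun ⟨h1, γ, h2, h4⟩ => ⟨_, ⟨⟨⟨c, hCL h1⟩, (hker _).2 h1⟩,
        (hφk _).2 ((hφ1 ⟨⟨c, hCL h1⟩, (hker _).2 h1⟩).unique h4 ▸ h2), rfl⟩, rfl⟩⟩
  have hRn : ∀ g ∈ Subgroup.normalizer (V : Set G), ∀ c ∈ (pCore 2 ↥(Subgroup.normalizer
      (V : Set G))).map (Subgroup.normalizer (V : Set G)).subtype, g * c * g⁻¹ ∈
      (pCore 2 ↥(Subgroup.normalizer (V : Set G))).map (Subgroup.normalizer (V : Set G)).subtype := by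
    rintro g hg _ ⟨c, hc, rfl⟩
    exact ⟨_, (hθk ▸ θ.normal_ker).conj_mem c hc ⟨g, hg⟩, rfl⟩
  have hq : ∃ _ : (((pCore 2 ↥(Subgroup.normalizer (V : Set G))).map
      (Subgroup.normalizer (V : Set G)).subtype).subgroupOf _).Normal, Nonempty (_ ⧸ _ ≃* _) :=
    quot_of_map (MonoidHom.id G) Function.injective_id (Subgroup.map_id _) (Subgroup.map_id _) θ hθ
      fun g => by
        rw [← MonoidHom.mem_ker, hθk]
        exact (Subgroup.mem_map_iff_mem (Subgroup.subtype_injective _)).symm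
  refine ⟨V, ea_iff.1 hEA, hc8, hzV, _, rfl, ?_⟩
  generalize (pCore 2 ↥(Subgroup.normalizer (V : Set G))).map
    (Subgroup.normalizer (V : Set G)).subtype = R at hR hRn hq ⊢
  have hQR : ∀ q ∈ Q, q ∈ C → q ∈ R := fun q hq hc => (hR q).2 ⟨hc, 1, one_mem _, F.ov_Q hq⟩
  have hcen : ∀ c : R, c ∈ Subgroup.center R ↔ (c : G) ∈ V := fun c => by
    refine ⟨fun h => ?_, fun h => Subgroup.mem_center_iff.2 fun d =>
      Subtype.ext (((hR d).1 d.2).1 c h).symm⟩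
    obtain ⟨-, γ, h1, h2⟩ := (hR c).1 c.2
    have h4 : ∀ q ∈ Q, q ∈ C → q * c = c * q := fun q hq hc =>
      congrArg Subtype.val (Subgroup.mem_center_iff.1 h ⟨q, hQR q hq hc⟩)
    rw [(D0_check h1).2.1 fun b hb => by
      obtain ⟨q, hq, hc, e⟩ := hB b hb
      rw [← e, ← F.κ_ov h2 hq, ← h4 q hq hc, mul_inv_cancel_right]] at h2
    refine (hV _).2 ⟨F.mem_of_ov h2, mem_L4_of_perp fun b hb => ?_⟩
    obtain ⟨q, hq, hc, e⟩ := hB b hb
    exact e ▸ (F.comm_iff (F.mem_of_ov h2) hq).1 (h4 q hq hc).symm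
  refine ⟨isSpecial_of (hD2.to_le fun c hc => mem_pre.2 ((hR c).1 hc).2) (fun c => (hcen _).2 ?_)
    fun c hc => ?_, ?_, ?_, hq⟩
  · obtain ⟨h1, γ, h2, h4⟩ := (hR c).1 c.2
    obtain ⟨p, hp, h5, h6⟩ := hlift (hfix h1 h4).1 (hfix h1 h4).2
    have h7 := F.mul_inv_mem h4 h5
    have h8 : p * p ∈ V := by
      rcases F.cent_Q hx (F.mem_of_ov ((D0_check h2).1 ▸ h5.mul h5))
        ((Commute.mul_left h6 h6).eq) with e | e <;> rw [e]
      exacts [one_mem _, hzV]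
    change (c : G) * c ∈ V
    rw [show (c : G) * c = c * p⁻¹ * (p * (c * p⁻¹) * p⁻¹) * (p * p) by group]
    refine mul_mem ((hV _).2 ⟨mul_mem h7 (F.conj_mem h5 h7), ?_⟩) h8
    rw [F.κ_mul _ h7 _ (F.conj_mem h5 h7), F.κ_ov h5 h7]
    exact (D0_check h2).2.2 _ ((hQC _ h7).1 (mul_mem h1 (inv_mem hp)))
  · obtain ⟨u, hu⟩ := (hι _).1 ((hcen c).1 hc)
    by_cases h1 : u = 0
    · rw [show c = 1 from Subtype.ext (hu.symm.trans (h1 ▸ h0))]; exact one_mem _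
    obtain ⟨γ, rfl⟩ := htr u h1
    obtain ⟨g, rfl⟩ := MonoidHom.range_eq_top.1 hμs γ
    obtain ⟨q, hq, hc, e⟩ := hB 5 (by decide)
    obtain ⟨q', hq', hc', e'⟩ := hB 34 (by decide)
    have h2 := F.comm hq hq'
    rw [e, e', show bf (vdec 12 5) (vdec 12 34) = 1 by decide +kernel, zp_one, mul_assoc,
      F.lx.z_comm _ hq] at h2
    have h4 : c = ⁅(⟨_, hRn g g.2 q (hQR q hq hc)⟩ : R), ⟨_, hRn g g.2 q' (hQR q' hq' hc')⟩⁆ :=
      Subtype.ext (by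
        rw [← hu, ← hμ, hz]
        change _ = g * q * (g : G)⁻¹ * (g * q' * (g : G)⁻¹) * (g * q * (g : G)⁻¹)⁻¹ *
          (g * q' * (g : G)⁻¹)⁻¹
        calc _ = g * (q' * z * q'⁻¹) * (g : G)⁻¹ := by rw [F.lx.z_comm _ hq', mul_inv_cancel_right]
          _ = g * (q' * (z * q) * q⁻¹ * q'⁻¹) * (g : G)⁻¹ := by group
          _ = _ := by rw [← h2]; group)
    exact h4 ▸ Subgroup.commutator_mem_commutator trivial trivial
  · have h1 := F.card_Eb R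
    have h2 : Eb ρ R = D0 := by
      ext γ
      refine mem_Eb.trans ⟨fun ⟨c, hc, h⟩ => ?_, fun h => ?_⟩
      · obtain ⟨-, δ, h4, h5⟩ := (hR c).1 hc
        exact h5.unique h ▸ h4
      · obtain ⟨c, hc, h4, -⟩ := hlift (Y0_le (D0_le h)) (Y0_fix (D0_le h))
        exact ⟨c, (hR c).2 ⟨hc, γ, h, h4⟩, h4⟩
    have h4 := F.lx.card_centralizer hVQ hzV
    rw [hc8, F.card] at h4
    rw [inf_eq_left.2 fun c hc => hCz ((hR c).1 hc).1, h2, D0_spec.2, show Q ⊓ R = Q ⊓ C from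
      le_antisymm (fun c hc => ⟨hc.1, ((hR c).1 hc.2).1⟩) fun c hc => ⟨hc.1, hQR c hc.1 hc.2⟩,
      Nat.eq_of_mul_eq_mul_right (by decide) (h4.trans (by norm_num : _ = 2 ^ 11 * 8))] at h1
    exact h1
  · ext c
    exact ⟨by rintro ⟨d, hd, rfl⟩; exact (hcen d).1 hd,
      fun h => ⟨⟨c, hQR c (hVQ h) (hVC h)⟩, (hcen _).2 h, rfl⟩⟩

end CL.F24
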